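import Mathlib
import Cfsg.Agent.H540.E8C.O8.Iface

/-!
# S5919, the row `Ω₈⁺(2)`: task O8-LIN1 (helper839)

The fixed vectors of the Sylow subgroup `U : T` are fixed by the parabolic subgroup `U : GL(W)`.
The space `X` of the fixed vectors of `U` has dimension 10. The 19 involutions of the table `tbl` act on `X` with the same
dimension `d` of fixed vectors; three commuting ones with products in the table give `d = 10` (everything is trivial on
`X`) or `d = 6`, and then the fixed vectors of two four-generated unipotent radicals have dimension 3 and are fixed by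
`GL₃(2)` (generated by elements of order seven).
-/

set_option autoImplicit false
set_option maxRecDepth 100000

namespace Cfsg.Agent.H839.O8

open Module
open Cfsg.Agent.StdO8.Model (Om)
open Cfsg.Agent.StdO8.Code (gen word same word_eq word_append word_cons word_nil word_single word_reverse)
open Cfsg.Agent.H540.E8C.O8 (gU gT gT')

/-! ### involutions on vector spaces over `𝔽₃` -/

section inv

variable {V : Type*} [AddCommGroup V] [Module (ZMod 3) V]

/-- the fixed vectors -/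
def fixS (a : V →ₗ[ZMod 3] V) : Submodule (ZMod 3) V where
  carrier := {v | a v = v}
  add_mem' := fun {v w} hv hw => by
    show a (v + w) = v + w
    rw [map_add, show a v = v from hv, show a w = w from hw]
  zero_mem' := map_zero a
  smul_mem' := fun c v hv => by
    show a (c • v) = c • v
    rw [map_smul, show a v = v from hv]

/-- the inverted vectors -/
def negS (a : V →ₗ[ZMod 3] V) : Submodule (ZMod 3) V where
  carrier := {v | a v = -v}
  add_mem' := fun {v w} hv hw => by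
    show a (v + w) = -(v + w)
    rw [map_add, show a v = -v from hv, show a w = -w from hw, neg_add]
  zero_mem' := by
    show a 0 = -0
    rw [map_zero, neg_zero]
  smul_mem' := fun c v hv => by
    show a (c • v) = -(c • v)
    rw [map_smul, show a v = -v from hv, smul_neg]

theorem mem_fixS {a : V →ₗ[ZMod 3] V} {v : V} : v ∈ fixS a ↔ a v = v := Iff.rfl
theorem mem_negS {a : V →ₗ[ZMod 3] V} {v : V} : v ∈ negS a ↔ a v = -v := Iff.rfl

theorem three_smul' (v : V) : v + v + v = 0 := by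
  have h : (3 : ZMod 3) • v = 0 := by rw [show (3 : ZMod 3) = 0 from rfl, zero_smul]
  rw [← h, show (3 : ZMod 3) = 1 + 1 + 1 from rfl, add_smul, add_smul, one_smul]

theorem split [Module.Finite (ZMod 3) V] (W : Submodule (ZMod 3) V) (a : V →ₗ[ZMod 3] V) (ha : ∀ v ∈ W, a v ∈ W)
    (h2 : ∀ v ∈ W, a (a v) = v) :
    finrank (ZMod 3) ↥W = finrank (ZMod 3) ↥(W ⊓ fixS a) + finrank (ZMod 3) ↥(W ⊓ negS a) := by
  have h1 : (W ⊓ fixS a) ⊔ (W ⊓ negS a) = W := by
    apply le_antisymm (sup_le inf_le_left inf_le_left)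
    intro v hv
    have h3 := three_smul' v
    have e : v = -(v + a v) + -(v - a v) := by
      have : v = -(v + v) := by rw [eq_neg_iff_add_eq_zero, ← add_assoc]; exact h3
      conv_lhs => rw [this]
      abel
    rw [e]
    refine Submodule.add_mem_sup ⟨W.neg_mem (W.add_mem hv (ha v hv)), ?_⟩ ⟨W.neg_mem (W.sub_mem hv (ha v hv)), ?_⟩
    · show a (-(v + a v)) = -(v + a v)
      rw [map_neg, map_add, h2 v hv, add_comm]
    · show a (-(v - a v)) = -(-(v - a v))
      rw [map_neg, map_sub, h2 v hv, neg_sub, neg_neg]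
  have h3 : (W ⊓ fixS a) ⊓ (W ⊓ negS a) = ⊥ := by
    rw [Submodule.eq_bot_iff]
    rintro v ⟨⟨_, h4⟩, ⟨_, h5⟩⟩
    have h6 : v = -v := (mem_fixS.1 h4).symm.trans (mem_negS.1 h5)
    have h7 : v + v = 0 := by
      rw [← eq_neg_iff_add_eq_zero]
      exact h6
    have h8 := three_smul' v
    rwa [h7, zero_add] at h8
  have h4 := Submodule.finrank_sup_add_finrank_inf_eq (W ⊓ fixS a) (W ⊓ negS a)
  rw [h1, h3, finrank_bot, add_zero] at h4
  exact h4

/-- **the four-group formula** -/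
theorem four [Module.Finite (ZMod 3) V] (W : Submodule (ZMod 3) V) (a b c : V →ₗ[ZMod 3] V) (ha : ∀ v ∈ W, a v ∈ W)
    (hb : ∀ v ∈ W, b v ∈ W) (ha2 : ∀ v ∈ W, a (a v) = v) (hb2 : ∀ v ∈ W, b (b v) = v) (hab : ∀ v ∈ W, a (b v) = b (a v))
    (hc : ∀ v ∈ W, c v = a (b v)) :
    finrank (ZMod 3) ↥(W ⊓ fixS a) + finrank (ZMod 3) ↥(W ⊓ fixS b) + finrank (ZMod 3) ↥(W ⊓ fixS c) =
      2 * finrank (ZMod 3) ↥(W ⊓ fixS a ⊓ fixS b) + finrank (ZMod 3) ↥W := by
  have h1 := split W a ha ha2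
  have h2 := split (W ⊓ fixS a) b (fun v hv => ⟨hb v hv.1, by
    show a (b v) = b v
    rw [hab v hv.1, mem_fixS.1 hv.2]⟩) (fun v hv => hb2 v hv.1)
  have h3 := split (W ⊓ negS a) b (fun v hv => ⟨hb v hv.1, by
    show a (b v) = - b v
    rw [hab v hv.1, mem_negS.1 hv.2, map_neg]⟩) (fun v hv => hb2 v hv.1)
  have h4 := split (W ⊓ fixS b) a (fun v hv => ⟨ha v hv.1, by
    show b (a v) = a v
    rw [← hab v hv.1, mem_fixS.1 hv.2]⟩) (fun v hv => ha2 v hv.1)
  have h5 := split (W ⊓ fixS c) a (fun v hv => ⟨ha v hv.1, by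
    show c (a v) = a v
    rw [hc _ (ha v hv.1), ← hab v hv.1, ← hc v hv.1, mem_fixS.1 hv.2]⟩) (fun v hv => ha2 v hv.1)
  have e1 : W ⊓ fixS b ⊓ fixS a = W ⊓ fixS a ⊓ fixS b := by rw [inf_assoc, inf_comm (fixS b), ← inf_assoc]
  have e2 : W ⊓ fixS b ⊓ negS a = W ⊓ negS a ⊓ fixS b := by rw [inf_assoc, inf_comm (fixS b), ← inf_assoc]
  have e3 : W ⊓ fixS c ⊓ fixS a = W ⊓ fixS a ⊓ fixS b := by
    ext v
    constructor
    · rintro ⟨⟨h6, h7⟩, h8⟩
      have k7 : c v = v := h7
      have k8 : a v = v := h8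
      refine ⟨⟨h6, h8⟩, ?_⟩
      show b v = v
      rw [hc v h6, hab v h6, k8] at k7
      exact k7
    · rintro ⟨⟨h6, h7⟩, h8⟩
      have k7 : a v = v := h7
      have k8 : b v = v := h8
      refine ⟨⟨h6, ?_⟩, h7⟩
      show c v = v
      rw [hc v h6, k8, k7]
  have e4 : W ⊓ fixS c ⊓ negS a = W ⊓ negS a ⊓ negS b := by
    ext v
    constructor
    · rintro ⟨⟨h6, h7⟩, h8⟩
      have k7 : c v = v := h7
      have k8 : a v = - v := h8
      refine ⟨⟨h6, h8⟩, ?_⟩
      show b v = - v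
      rw [hc v h6, hab v h6, k8, map_neg] at k7
      rw [← neg_neg (b v), k7]
    · rintro ⟨⟨h6, h7⟩, h8⟩
      have k7 : a v = - v := h7
      have k8 : b v = - v := h8
      refine ⟨⟨h6, ?_⟩, h7⟩
      show c v = v
      rw [hc v h6, k8, map_neg, k7, neg_neg]
  rw [e1, e2] at h4
  rw [e3, e4] at h5
  omega

/-- an automorphism of order dividing seven of a space of dimension three is trivial -/
theorem seven [Module.Finite (ZMod 3) V] (Y : Submodule (ZMod 3) V) (hY : finrank (ZMod 3) ↥Y = 3)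
    (a : V →ₗ[ZMod 3] V) (ha : ∀ v ∈ Y, a v ∈ Y) (h7 : ∀ v, (a ^ 7) v = v) : ∀ v ∈ Y, a v = v := by
  classical
  have hfin : Finite V := Module.finite_of_finite (ZMod 3)
  have hf : Fact (Nat.Prime 7) := ⟨by norm_num⟩
  have hpow : ∀ (k : ℕ), ∀ v ∈ Y, (a ^ k) v ∈ Y := by
    intro k
    induction k with
    | zero => intro v hv; exact hv
    | succ k ih =>
      intro v hv
      rw [pow_succ]
      exact ih _ (ha v hv)
  -- the cyclic group of order 7 acts on `Y`
  have hadd : ∀ (i j : ZMod 7) (v : V), (a ^ (i + j).val) v = (a ^ i.val) ((a ^ j.val) v) := by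
    intro i j v
    have h1 : ∀ (m : ℕ) (w : V), (a ^ (7 * m)) w = w := by
      intro m
      induction m with
      | zero => intro w; rfl
      | succ m ih =>
        intro w
        rw [Nat.mul_succ, pow_add, Module.End.mul_apply, h7, ih]
    rw [← Module.End.mul_apply, ← pow_add, ZMod.val_add]
    conv_rhs => rw [← Nat.mod_add_div (i.val + j.val) 7, pow_add, Module.End.mul_apply, h1]
  let act : MulAction (Multiplicative (ZMod 7)) ↥Y :=
    { smul := fun i v => ⟨(a ^ (Multiplicative.toAdd i).val) v, hpow _ v v.2⟩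
      one_smul := fun v => Subtype.ext rfl
      mul_smul := fun i j v => Subtype.ext (hadd (Multiplicative.toAdd i) (Multiplicative.toAdd j) v) }
  have hG : IsPGroup 7 (Multiplicative (ZMod 7)) := by
    refine IsPGroup.of_card (n := 1) ?_
    rw [Nat.card_eq_fintype_card, Fintype.card_multiplicative, ZMod.card, pow_one]
  have hc := hG.card_modEq_card_fixedPoints (α := ↥Y)
  -- the fixed points
  have hfix : Nat.card ↥(MulAction.fixedPoints (Multiplicative (ZMod 7)) ↥Y) = Nat.card ↥(Y ⊓ fixS a) := by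
    refine Nat.card_congr
      { toFun := fun v => ⟨(v : ↥Y), (v : ↥Y).2, ?_⟩
        invFun := fun v => ⟨⟨v, v.2.1⟩, ?_⟩
        left_inv := fun v => rfl
        right_inv := fun v => rfl }
    · have h1 := v.2 (Multiplicative.ofAdd 1)
      have h2 := congrArg Subtype.val h1
      exact h2
    · intro i
      apply Subtype.ext
      show (a ^ (Multiplicative.toAdd i).val) (v : V) = v
      have h2 : a (v : V) = v := v.2.2
      generalize (Multiplicative.toAdd i).val = k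
      induction k with
      | zero => rfl
      | succ k ih => rw [pow_succ, Module.End.mul_apply, h2, ih]
  rw [hfix] at hc
  have hcard : ∀ S : Submodule (ZMod 3) V, Nat.card ↥S = 3 ^ finrank (ZMod 3) ↥S := by
    intro S
    rw [Module.natCard_eq_pow_finrank (K := ZMod 3) (V := ↥S), Nat.card_zmod]
  rw [hcard, hcard, hY] at hc
  have hle : finrank (ZMod 3) ↥(Y ⊓ fixS a) ≤ 3 := (Submodule.finrank_mono inf_le_left).trans hY.le
  have h3 : finrank (ZMod 3) ↥(Y ⊓ fixS a) = 3 := by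
    interval_cases h : finrank (ZMod 3) ↥(Y ⊓ fixS a)
    · exact absurd hc (by decide)
    · exact absurd hc (by decide)
    · exact absurd hc (by decide)
    · rfl
  have h4 : Y ⊓ fixS a = Y := Submodule.eq_of_le_of_finrank_eq inf_le_left (by rw [h3, hY])
  intro v hv
  rw [← h4] at hv
  exact hv.2

theorem triple_arith {d x y z t : ℕ} (h1 : d + d + d = 2 * x + 10) (h2 : d + d + d = 2 * y + 10)
    (h3 : d + d + d = 2 * z + 10) (h4 : x + y + z = 2 * t + d) (h5 : d ≤ 10) : d = 10 ∨ d = 6 ∧ t = 3 := by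
  omega

/-- three commuting involutions all of whose products have the same dimension of fixed space -/
theorem triple [Module.Finite (ZMod 3) V] (W : Submodule (ZMod 3) V) (hW : finrank (ZMod 3) ↥W = 10)
    (a b c ab ac bc abc : V →ₗ[ZMod 3] V) (ha : ∀ v ∈ W, a v ∈ W)
    (hb : ∀ v ∈ W, b v ∈ W) (hc : ∀ v ∈ W, c v ∈ W) (ha2 : ∀ v ∈ W, a (a v) = v) (hb2 : ∀ v ∈ W, b (b v) = v)
    (hc2 : ∀ v ∈ W, c (c v) = v) (cab : ∀ v ∈ W, a (b v) = b (a v)) (cac : ∀ v ∈ W, a (c v) = c (a v))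
    (cbc : ∀ v ∈ W, b (c v) = c (b v)) (hab : ∀ v ∈ W, ab v = a (b v)) (hac : ∀ v ∈ W, ac v = a (c v))
    (hbc : ∀ v ∈ W, bc v = b (c v)) (habc : ∀ v ∈ W, abc v = a (b (c v)))
    (d : ℕ) (da : finrank (ZMod 3) ↥(W ⊓ fixS a) = d) (db : finrank (ZMod 3) ↥(W ⊓ fixS b) = d)
    (dc : finrank (ZMod 3) ↥(W ⊓ fixS c) = d) (dab : finrank (ZMod 3) ↥(W ⊓ fixS ab) = d)
    (dac : finrank (ZMod 3) ↥(W ⊓ fixS ac) = d) (dbc : finrank (ZMod 3) ↥(W ⊓ fixS bc) = d)
    (dabc : finrank (ZMod 3) ↥(W ⊓ fixS abc) = d) :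
    (d = 10) ∨ (d = 6 ∧ finrank (ZMod 3) ↥(W ⊓ fixS a ⊓ fixS b ⊓ fixS c) = 3) := by
  have h1 := four W a b ab ha hb ha2 hb2 cab hab
  have h2 := four W a c ac ha hc ha2 hc2 cac hac
  have h3 := four W a bc abc ha (fun v hv => by rw [hbc v hv]; exact hb _ (hc _ hv)) ha2
    (fun v hv => by
      rw [hbc v hv, hbc _ (hb _ (hc _ hv)), ← cbc _ (hc v hv), hc2 v hv, hb2 v hv])
    (fun v hv => by
      rw [hbc v hv, hbc _ (ha v hv), cab _ (hc v hv), cac v hv])
    (fun v hv => by rw [hbc v hv, habc v hv])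
  have h4 := four (W ⊓ fixS a) b c bc
    (fun v hv => ⟨hb v hv.1, by show a (b v) = b v; rw [cab v hv.1, mem_fixS.1 hv.2]⟩)
    (fun v hv => ⟨hc v hv.1, by show a (c v) = c v; rw [cac v hv.1, mem_fixS.1 hv.2]⟩)
    (fun v hv => hb2 v hv.1) (fun v hv => hc2 v hv.1) (fun v hv => cbc v hv.1) (fun v hv => hbc v hv.1)
  have h6 : finrank (ZMod 3) ↥(W ⊓ fixS a) ≤ finrank (ZMod 3) ↥W := Submodule.finrank_mono inf_le_left
  rw [da, db, dab, hW] at h1
  rw [da, dc, dac, hW] at h2
  rw [da, dbc, dabc, hW] at h3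
  rw [da] at h4
  rw [da, hW] at h6
  exact triple_arith h1 h2 h3 h4 h6

end inv

section rep

variable {V : Type*} [AddCommGroup V] [Module (ZMod 3) V] (ρ : Representation (ZMod 3) Om V)

/-- candidates for short words -/
def cands (l : List (ℕ × ℕ)) : List (List (ℕ × ℕ)) :=
  [] :: ((l.map fun a => [a]) ++ l.flatMap fun a => l.map fun b => [a, b])

/-- check that `gen q` normalizes the group generated by the `gen p`, `p ∈ l` -/
def stb (l : List (ℕ × ℕ)) (q : ℕ × ℕ) : Bool :=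
  l.all fun p => (cands l).any fun l' => same [p, q] (q :: l')

/-- table of conjugating words -/
def tbl : List ((ℕ × ℕ) × List (ℕ × ℕ)) :=
  [((1,32),[(2,128),(8,32)]), ((1,64),[(4,128),(8,64)]), ((1,96),[(2,128),(2,64),(8,32)]), ((1,160),[(8,32)]),
   ((1,192),[(8,64)]), ((1,224),[(2,64),(8,32)]), ((2,128),[(1,32),(2,16)]), ((4,128),[(1,64),(4,16)]),
   ((3,128),[(2,16)]), ((5,128),[(4,16)]), ((6,128),[(4,32),(1,32),(2,16)]), ((7,128),[(4,16),(2,16)]),
   ((2,64),[(4,128),(8,64),(1,32),(2,16)]), ((2,16),[(1,128),(8,16),(1,32),(2,16)]),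
   ((4,16),[(1,128),(8,16),(1,64),(4,16)]), ((8,16),[(1,128),(8,16)]), ((4,32),[(2,128),(8,32),(1,64),(4,16)]),
   ((8,32),[(2,128),(8,32),(1,32),(2,16)]), ((8,64),[(4,128),(8,64),(1,64),(4,16)]), ((1,128),[])]

def tblCheck : Bool :=
  tbl.all fun e => e.2.all (fun q => (gT ++ gT').contains q) && same (e.2 ++ [(1,128)]) (e.1 :: e.2)

theorem tblCheck_true : tblCheck = true := by decide +kernel

def E1 : List (ℕ × ℕ) := [(1,32),(1,64),(1,128)]
def E2 : List (ℕ × ℕ) := [(1,128),(2,128),(4,128)]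

/-- repetition of a word -/
def rep7 (w : List (ℕ × ℕ)) : List (ℕ × ℕ) := w ++ (w ++ (w ++ (w ++ (w ++ (w ++ w)))))

def K1t : List ((ℕ × ℕ) × List (ℕ × ℕ) × List (ℕ × ℕ)) :=
  [((2,64),[(2,128),(8,64),(4,32)],[(4,32),(2,128),(8,64)]), ((2,128),[(2,64),(4,128),(8,32)],[(8,32),(2,64),(4,128)]),
   ((4,128),[(2,128),(4,32),(8,64)],[(8,64),(2,128),(4,32)]), ((4,32),[(4,128),(8,32),(2,64)],[(2,64),(4,128),(8,32)]),
   ((8,32),[(4,32),(8,64),(2,128)],[(2,128),(4,32),(8,64)]), ((8,64),[(2,64),(8,32),(4,128)],[(4,128),(2,64),(8,32)])]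

def K2t : List ((ℕ × ℕ) × List (ℕ × ℕ) × List (ℕ × ℕ)) :=
  [((1,32),[(1,64),(4,32),(2,16)],[(2,16),(1,64),(4,32)]), ((1,64),[(1,32),(2,64),(4,16)],[(4,16),(1,32),(2,64)]),
   ((2,64),[(1,64),(2,16),(4,32)],[(4,32),(1,64),(2,16)]), ((2,16),[(2,64),(4,16),(1,32)],[(1,32),(2,64),(4,16)]),
   ((4,16),[(2,16),(4,32),(1,64)],[(1,64),(2,16),(4,32)]), ((4,32),[(1,32),(4,16),(2,64)],[(2,64),(1,32),(4,16)])]

/-- check of a table of products of two words of order seven normalizing a group -/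
def kCheck (l : List (ℕ × ℕ)) (K : List ((ℕ × ℕ) × List (ℕ × ℕ) × List (ℕ × ℕ))) : Bool :=
  K.all fun e => e.2.1.all (stb l) && e.2.2.all (stb l) && same [e.1] (e.2.1 ++ e.2.2) &&
    same (rep7 e.2.1) [] && same (rep7 e.2.2) []

theorem stb_gU : (gT ++ gT').all (stb gU) = true := by decide +kernel
theorem kCheck1 : kCheck (gU ++ E1) K1t = true := by decide +kernel
theorem kCheck2 : kCheck (gU ++ E2) K2t = true := by decide +kernel

theorem gen_inv (p : ℕ × ℕ) : (gen p)⁻¹ = gen p := by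
  rw [← word_single, ← word_reverse]
  rfl

theorem gen_sq (p : ℕ × ℕ) : gen p * gen p = 1 := by
  nth_rewrite 1 [← gen_inv p]
  exact inv_mul_cancel _

/-- the vectors fixed by the elements `gen p`, `p ∈ l` -/
def fxr (l : List (ℕ × ℕ)) : Submodule (ZMod 3) V where
  carrier := {v | ∀ p ∈ l, ρ (gen p) v = v}
  add_mem' := fun ha hb p hp => by rw [map_add, ha p hp, hb p hp]
  zero_mem' := fun p _ => map_zero _
  smul_mem' := fun c v hv p hp => by rw [map_smul, hv p hp]

variable {ρ}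

theorem ap_mul (g h : Om) (v : V) : ρ (g * h) v = ρ g (ρ h v) := by
  rw [map_mul]
  rfl

theorem word_fix {l : List (ℕ × ℕ)} {v : V} (h : ∀ p ∈ l, ρ (gen p) v = v) : ρ (word l) v = v := by
  induction l with
  | nil => rw [word_nil, map_one]; rfl
  | cons p l ih =>
    rw [word_cons, ap_mul, ih fun q hq => h q (List.mem_cons_of_mem _ hq), h p List.mem_cons_self]

theorem word_stab {W : Submodule (ZMod 3) V} {l : List (ℕ × ℕ)} (h : ∀ p ∈ l, ∀ v ∈ W, ρ (gen p) v ∈ W) :
    ∀ v ∈ W, ρ (word l) v ∈ W := by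
  induction l with
  | nil =>
    intro v hv
    rw [word_nil, map_one]
    exact hv
  | cons p l ih =>
    intro v hv
    rw [word_cons, ap_mul]
    exact h p List.mem_cons_self _ (ih (fun q hq => h q (List.mem_cons_of_mem _ hq)) v hv)

theorem cands_sub {l l' : List (ℕ × ℕ)} (h : l' ∈ cands l) : ∀ p ∈ l', p ∈ l := by
  rw [cands, List.mem_cons, List.mem_append, List.mem_map, List.mem_flatMap] at h
  rcases h with rfl | ⟨a, ha, rfl⟩ | ⟨a, ha, h⟩
  · intro p hp
    exact absurd hp List.not_mem_nil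
  · intro p hp
    rw [List.mem_singleton] at hp
    rw [hp]
    exact ha
  · rw [List.mem_map] at h
    obtain ⟨b, hb, rfl⟩ := h
    intro p hp
    rw [List.mem_cons, List.mem_singleton] at hp
    rcases hp with rfl | rfl
    · exact ha
    · exact hb

/-- `gen q` stabilizes the fixed space -/
theorem stb_stab {l : List (ℕ × ℕ)} {q : ℕ × ℕ} (h : stb l q = true) : ∀ v ∈ fxr ρ l, ρ (gen q) v ∈ fxr ρ l := by
  intro v hv p hp
  rw [stb, List.all_eq_true] at h
  obtain ⟨l', h1, h2⟩ := List.any_eq_true.1 (h p hp)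
  have h3 := word_eq h2
  rw [word_cons, word_single, word_cons] at h3
  rw [← ap_mul, h3, ap_mul, word_fix fun r hr => hv r (cands_sub h1 r hr)]

theorem conj_le [Module.Finite (ZMod 3) V] {X : Submodule (ZMod 3) V} {g s t : Om} (hg : ∀ v ∈ X, ρ g v ∈ X)
    (h : g * s = t * g) : finrank (ZMod 3) ↥(X ⊓ fixS (ρ s)) ≤ finrank (ZMod 3) ↥(X ⊓ fixS (ρ t)) := by
  have hinj : Function.Injective (ρ g) := by
    intro v w hvw
    have h1 : ρ g⁻¹ (ρ g v) = ρ g⁻¹ (ρ g w) := by rw [hvw]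
    rw [← ap_mul, ← ap_mul, inv_mul_cancel, map_one] at h1
    exact h1
  rw [(Submodule.equivMapOfInjective (ρ g) hinj (X ⊓ fixS (ρ s))).finrank_eq]
  apply Submodule.finrank_mono
  rintro _ ⟨v, ⟨h1, h2⟩, rfl⟩
  have h3 : ρ s v = v := h2
  refine ⟨hg v h1, ?_⟩
  show ρ t (ρ g v) = ρ g v
  rw [← ap_mul, ← h, ap_mul, h3]

section main

theorem stabX : ∀ q ∈ gT ++ gT', ∀ v ∈ fxr ρ gU, ρ (gen q) v ∈ fxr ρ gU := fun q hq =>
  stb_stab (List.all_eq_true.1 stb_gU q hq)

/-- the dimension is constant on the table -/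
theorem dconst [Module.Finite (ZMod 3) V] : ∀ e ∈ tbl, finrank (ZMod 3) ↥(fxr ρ gU ⊓ fixS (ρ (gen e.1))) =
    finrank (ZMod 3) ↥(fxr ρ gU ⊓ fixS (ρ (gen (1, 128)))) := by
  intro e he
  have h := List.all_eq_true.1 tblCheck_true e he
  rw [Bool.and_eq_true, List.all_eq_true] at h
  have h1 : ∀ q ∈ e.2, q ∈ gT ++ gT' := fun q hq => by
    have := h.1 q hq
    rwa [List.contains_iff_mem] at this
  have h2 := word_eq h.2
  rw [word_append, word_single, word_cons] at h2
  have h3 : (word e.2)⁻¹ * gen e.1 = gen (1, 128) * (word e.2)⁻¹ := by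
    rw [inv_mul_eq_iff_eq_mul, ← mul_assoc, h2, mul_inv_cancel_right]
  have s1 : ∀ v ∈ fxr ρ gU, ρ (word e.2) v ∈ fxr ρ gU := word_stab fun q hq => stabX q (h1 q hq)
  have s2 : ∀ v ∈ fxr ρ gU, ρ (word e.2)⁻¹ v ∈ fxr ρ gU := by
    rw [← word_reverse]
    exact word_stab fun q hq => stabX q (h1 q (List.mem_reverse.1 hq))
  exact le_antisymm (conj_le s2 h3) (conj_le s1 h2)

/-- a linear map given by a word of order dividing seven -/
theorem word_seven [Module.Finite (ZMod 3) V] {Y : Submodule (ZMod 3) V} (hY : finrank (ZMod 3) ↥Y = 3) {w : List (ℕ × ℕ)}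
    (hs : ∀ p ∈ w, ∀ v ∈ Y, ρ (gen p) v ∈ Y) (h : same (rep7 w) [] = true) : ∀ v ∈ Y, ρ (word w) v = v := by
  apply seven Y hY (ρ (word w)) (word_stab hs)
  intro v
  have h1 := word_eq h
  rw [rep7, word_append, word_append, word_append, word_append, word_append, word_append, word_nil] at h1
  have h2 : (word w) ^ 7 = 1 := by
    rw [← h1]
    simp only [pow_succ, pow_zero, one_mul, mul_assoc]
  rw [← map_pow, h2, map_one]
  rfl

theorem kTriv [Module.Finite (ZMod 3) V] {l : List (ℕ × ℕ)} {K : List ((ℕ × ℕ) × List (ℕ × ℕ) × List (ℕ × ℕ))} (h : kCheck l K = true)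
    (hY : finrank (ZMod 3) ↥(fxr ρ l) = 3) : ∀ e ∈ K, ∀ v ∈ fxr ρ l, ρ (gen e.1) v = v := by
  intro e he v hv
  have h1 := List.all_eq_true.1 h e he
  rw [Bool.and_eq_true, Bool.and_eq_true, Bool.and_eq_true, Bool.and_eq_true, List.all_eq_true,
    List.all_eq_true] at h1
  obtain ⟨⟨⟨⟨h2, h3⟩, h4⟩, h5⟩, h6⟩ := h1
  have h7 := word_eq h4
  rw [word_single, word_append] at h7
  rw [h7, ap_mul, word_seven hY (fun p hp => stb_stab (h3 p hp)) h6 v hv,
    word_seven hY (fun p hp => stb_stab (h2 p hp)) h5 v hv]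

theorem fxr_app3 (l : List (ℕ × ℕ)) (a b c : ℕ × ℕ) :
    fxr ρ (l ++ [a, b, c]) = fxr ρ l ⊓ fixS (ρ (gen a)) ⊓ fixS (ρ (gen b)) ⊓ fixS (ρ (gen c)) := by
  ext v
  constructor
  · intro h
    exact ⟨⟨⟨fun p hp => h p (List.mem_append_left _ hp), h a (by simp)⟩, h b (by simp)⟩, h c (by simp)⟩
  · rintro ⟨⟨⟨h1, h2⟩, h3⟩, h4⟩ p hp
    rw [List.mem_append, List.mem_cons, List.mem_cons, List.mem_singleton] at hp
    rcases hp with hp | rfl | rfl | rfl
    · exact h1 p hp
    · exact h2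
    · exact h3
    · exact h4

theorem gen_two {a b c : ℕ × ℕ} (h : same [a] [b, c] = true) (v : V) : ρ (gen a) v = ρ (gen b) (ρ (gen c) v) := by
  have h1 := word_eq h
  rw [word_single, word_cons, word_single] at h1
  rw [h1, ap_mul]

theorem gen_three {a b c d : ℕ × ℕ} (h : same [a] [b, c, d] = true) (v : V) :
    ρ (gen a) v = ρ (gen b) (ρ (gen c) (ρ (gen d) v)) := by
  have h1 := word_eq h
  rw [word_single, word_cons, word_cons, word_single] at h1
  rw [h1, ap_mul, ap_mul]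

theorem gen_comm {a b : ℕ × ℕ} (h : same [a, b] [b, a] = true) (v : V) :
    ρ (gen a) (ρ (gen b) v) = ρ (gen b) (ρ (gen a) v) := by
  have h1 := word_eq h
  rw [word_cons, word_single, word_cons, word_single] at h1
  rw [← ap_mul, h1, ap_mul]

theorem gen_invol (a : ℕ × ℕ) (v : V) : ρ (gen a) (ρ (gen a) v) = v := by
  rw [← ap_mul, gen_sq, map_one]
  rfl

/-- the triple lemma for words -/
theorem tripleW [Module.Finite (ZMod 3) V] (hX : finrank (ZMod 3) ↥(fxr ρ gU) = 10) (d : ℕ)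
    (hd : finrank (ZMod 3) ↥(fxr ρ gU ⊓ fixS (ρ (gen (1, 128)))) = d) (a b c ab ac bc abc : ℕ × ℕ)
    (h : ((gT ++ gT').contains a && (gT ++ gT').contains b && (gT ++ gT').contains c && same [a, b] [b, a] &&
      same [a, c] [c, a] && same [b, c] [c, b] && same [ab] [a, b] && same [ac] [a, c] && same [bc] [b, c] &&
      same [abc] [a, b, c] && [a, b, c, ab, ac, bc, abc].all fun x => (tbl.map Prod.fst).contains x) = true) :
    d = 10 ∨ d = 6 ∧ finrank (ZMod 3) ↥(fxr ρ (gU ++ [a, b, c])) = 3 := by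
  simp only [Bool.and_eq_true, List.contains_iff_mem, List.all_eq_true] at h
  obtain ⟨⟨⟨⟨⟨⟨⟨⟨⟨⟨h1, h2⟩, h3⟩, h4⟩, h5⟩, h6⟩, h7⟩, h8⟩, h9⟩, h10⟩, h11⟩ := h
  have hD : ∀ x ∈ [a, b, c, ab, ac, bc, abc], finrank (ZMod 3) ↥(fxr ρ gU ⊓ fixS (ρ (gen x))) = d := by
    intro x hx
    obtain ⟨e, he, rfl⟩ := List.mem_map.1 (h11 x hx)
    rw [dconst e he, hd]
  rw [fxr_app3]
  exact triple (fxr ρ gU) hX (ρ (gen a)) (ρ (gen b)) (ρ (gen c)) (ρ (gen ab)) (ρ (gen ac)) (ρ (gen bc)) (ρ (gen abc))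
    (stabX a h1) (stabX b h2) (stabX c h3) (fun v _ => gen_invol a v) (fun v _ => gen_invol b v)
    (fun v _ => gen_invol c v) (fun v _ => gen_comm h4 v) (fun v _ => gen_comm h5 v) (fun v _ => gen_comm h6 v)
    (fun v _ => gen_two h7 v) (fun v _ => gen_two h8 v) (fun v _ => gen_two h9 v) (fun v _ => gen_three h10 v)
    d (hD a (by simp)) (hD b (by simp)) (hD c (by simp)) (hD ab (by simp)) (hD ac (by simp)) (hD bc (by simp))
    (hD abc (by simp))

theorem fxr_mono {l l' : List (ℕ × ℕ)} (h : (l.all fun x => l'.contains x) = true) : fxr ρ l' ≤ fxr ρ l := by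
  intro v hv p hp
  have h1 := List.all_eq_true.1 h p hp
  rw [List.contains_iff_mem] at h1
  exact hv p h1

/-- **the linear algebra of O8-LIN1** -/
theorem lin [Module.Finite (ZMod 3) V] (hX : finrank (ZMod 3) ↥(fxr ρ gU) = 10) :
    3 ≤ finrank (ZMod 3) ↥(fxr ρ (gU ++ gT)) ∧ ∀ v ∈ fxr ρ (gU ++ gT), ∀ p ∈ gT', ρ (gen p) v = v := by
  obtain ⟨d, hd⟩ : ∃ d, finrank (ZMod 3) ↥(fxr ρ gU ⊓ fixS (ρ (gen (1, 128)))) = d := ⟨_, rfl⟩
  have t1 := tripleW hX d hd (1, 32) (1, 64) (1, 128) (1, 96) (1, 160) (1, 192) (1, 224) (by decide +kernel)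
  have t2 := tripleW hX d hd (1, 128) (2, 128) (4, 128) (3, 128) (5, 128) (6, 128) (7, 128) (by decide +kernel)
  by_cases h10 : d = 10
  · -- everything is trivial on `X`
    have hall : ∀ p ∈ gT ++ gT', ∀ v ∈ fxr ρ gU, ρ (gen p) v = v := by
      intro p hp v hv
      have h1 : p ∈ tbl.map Prod.fst := by
        have h2 : ((gT ++ gT').all fun x => (tbl.map Prod.fst).contains x) = true := by decide +kernel
        have h3 := List.all_eq_true.1 h2 p hp
        rwa [List.contains_iff_mem] at h3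
      obtain ⟨e, he, rfl⟩ := List.mem_map.1 h1
      have h2 : finrank (ZMod 3) ↥(fxr ρ gU ⊓ fixS (ρ (gen e.1))) = finrank (ZMod 3) ↥(fxr ρ gU) := by
        rw [dconst e he, hd, hX, h10]
      have h3 : fxr ρ gU ⊓ fixS (ρ (gen e.1)) = fxr ρ gU := Submodule.eq_of_le_of_finrank_eq inf_le_left h2
      rw [← h3] at hv
      exact hv.2
    have hle : fxr ρ gU ≤ fxr ρ (gU ++ gT) := by
      intro v hv p hp
      rcases List.mem_append.1 hp with hp | hp
      · exact hv p hp
      · exact hall p (List.mem_append_left _ hp) v hv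
    refine ⟨?_, fun v hv p hp => hall p (List.mem_append_right _ hp) v (fxr_mono (by decide +kernel) hv)⟩
    have := Submodule.finrank_mono hle
    rw [hX] at this
    omega
  · obtain ⟨-, y1⟩ := t1.resolve_left h10
    obtain ⟨-, y2⟩ := t2.resolve_left h10
    have k1 := kTriv (ρ := ρ) kCheck1 y1
    have k2 := kTriv (ρ := ρ) kCheck2 y2
    have k1' : ∀ p ∈ K1t.map Prod.fst, ∀ v ∈ fxr ρ (gU ++ E1), ρ (gen p) v = v := by
      intro p hp
      obtain ⟨e, he, rfl⟩ := List.mem_map.1 hp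
      exact k1 e he
    have k2' : ∀ p ∈ K2t.map Prod.fst, ∀ v ∈ fxr ρ (gU ++ E2), ρ (gen p) v = v := by
      intro p hp
      obtain ⟨e, he, rfl⟩ := List.mem_map.1 hp
      exact k2 e he
    have e1 : fxr ρ (gU ++ gT) = fxr ρ (gU ++ E1) := by
      apply le_antisymm (fxr_mono (by decide +kernel))
      intro v hv p hp
      have h1 : ((gU ++ gT).all fun x => (gU ++ E1).contains x || (K1t.map Prod.fst).contains x) = true := by
        decide +kernel
      have h2 := List.all_eq_true.1 h1 p hp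
      rw [Bool.or_eq_true, List.contains_iff_mem, List.contains_iff_mem] at h2
      rcases h2 with h2 | h2
      · exact hv p h2
      · exact k1' p h2 v hv
    have e2 : fxr ρ (gU ++ gT) = fxr ρ (gU ++ E2) := by
      apply Submodule.eq_of_le_of_finrank_eq (fxr_mono (by decide +kernel))
      rw [e1]
      exact y1.trans y2.symm
    have d1 : finrank (ZMod 3) ↥(fxr ρ (gU ++ gT)) = 3 := by rw [e1]; exact y1
    refine ⟨d1.ge, ?_⟩
    intro v hv p hp
    have hk : ∀ q ∈ K1t.map Prod.fst ++ K2t.map Prod.fst, ρ (gen q) v = v := by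
      intro q hq
      rcases List.mem_append.1 hq with hq | hq
      · exact k1' q hq v (e1 ▸ hv)
      · exact k2' q hq v (e2 ▸ hv)
    have h1 : (gT'.all fun x => (K1t.map Prod.fst ++ K2t.map Prod.fst).contains x || x == (8, 16)) = true := by
      decide +kernel
    have h2 := List.all_eq_true.1 h1 p hp
    rw [Bool.or_eq_true, List.contains_iff_mem, beq_iff_eq] at h2
    rcases h2 with h2 | rfl
    · exact hk p h2
    · have h3 : same [(8, 16)] [(8, 32), (2, 16), (8, 32), (2, 16)] = true := by decide +kernel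
      rw [← word_single, word_eq h3]
      apply word_fix
      intro q hq
      apply hk q
      have h4 : ([(8, 32), (2, 16), (8, 32), (2, 16)].all fun x =>
        (K1t.map Prod.fst ++ K2t.map Prod.fst).contains x) = true := by decide +kernel
      have h5 := List.all_eq_true.1 h4 q hq
      rwa [List.contains_iff_mem] at h5

end main

end rep

/-- **Task O8-LIN1**. -/
theorem lin1 : Cfsg.Agent.H540.E8C.O8.Lin1 := by
  intro F _ h
  have : Module.Finite (ZMod 3) Cfsg.Agent.H540.E8C.End.LL := by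
    unfold Cfsg.Agent.H540.E8C.End.LL
    infer_instance
  exact lin (ρ := Cfsg.Agent.H540.E8C.L13.rp F) h

end Cfsg.Agent.H839.O8
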